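import Cfsg.Agent.OD.Pre
import Cfsg.Agent.H6.TCTop
import Cfsg.Agent.H6.ONT1.C
set_option autoImplicit false
set_option maxRecDepth 100000
set_option Elab.async false
set_option linter.all false
namespace CfH6.ONT1
open CfH6
theorem p0 : C.OkL 256 2304 := C.okL_of 256 16 0 2304 (by decide) (by decide +kernel)
theorem p1 : C.OkL 2304 4352 := C.okL_of 2304 16 0 4352 (by decide) (by decide +kernel)
theorem p2 : C.OkL 4352 6400 := C.okL_of 4352 16 0 6400 (by decide) (by decide +kernel)
theorem p3 : C.OkL 6400 8448 := C.okL_of 6400 16 0 8448 (by decide) (by decide +kernel)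
theorem p4 : C.OkL 8448 10624 := C.okL_of 8448 17 0 10624 (by decide) (by decide +kernel)
theorem p5 : C.OkL 10624 12544 := C.okL_of 10624 15 0 12544 (by decide) (by decide +kernel)
theorem p6 : C.OkL 12544 14464 := C.okL_of 12544 15 0 14464 (by decide) (by decide +kernel)
theorem p7 : C.OkL 14464 16640 := C.okL_of 14464 17 0 16640 (by decide) (by decide +kernel)
theorem p8 : C.OkL 16640 18560 := C.okL_of 16640 15 0 18560 (by decide) (by decide +kernel)
theorem p9 : C.OkL 18560 20608 := C.okL_of 18560 16 0 20608 (by decide) (by decide +kernel)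
theorem p10 : C.OkL 20608 22528 := C.okL_of 20608 15 0 22528 (by decide) (by decide +kernel)
theorem p11 : C.OkL 22528 24320 := C.okL_of 22528 14 0 24320 (by decide) (by decide +kernel)
theorem p12 : C.OkL 24320 26112 := C.okL_of 24320 14 0 26112 (by decide) (by decide +kernel)
theorem p13 : C.OkL 26112 28032 := C.okL_of 26112 15 0 28032 (by decide) (by decide +kernel)
theorem p14 : C.OkL 28032 29952 := C.okL_of 28032 15 0 29952 (by decide) (by decide +kernel)
theorem p15 : C.OkL 29952 32000 := C.okL_of 29952 16 0 32000 (by decide) (by decide +kernel)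
theorem p16 : C.OkL 32000 33920 := C.okL_of 32000 15 0 33920 (by decide) (by decide +kernel)
theorem p17 : C.OkL 33920 35584 := C.okL_of 33920 13 0 35584 (by decide) (by decide +kernel)
theorem p18 : C.OkL 35584 37376 := C.okL_of 35584 14 0 37376 (by decide) (by decide +kernel)
theorem p19 : C.OkL 37376 39168 := C.okL_of 37376 14 0 39168 (by decide) (by decide +kernel)
end CfH6.ONT1
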