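import Cfsg.Agent.OD.Pre
import Cfsg.Agent.H6.TCTop
import Cfsg.Agent.H6.ONT1.C
set_option autoImplicit false
set_option maxRecDepth 100000
set_option Elab.async false
set_option linter.all false
namespace CfH6.ONT1
open CfH6
theorem p20 : C.OkL 39168 41088 := C.okL_of 39168 15 0 41088 (by decide) (by decide +kernel)
theorem p21 : C.OkL 41088 42752 := C.okL_of 41088 13 0 42752 (by decide) (by decide +kernel)
theorem p22 : C.OkL 42752 44416 := C.okL_of 42752 13 0 44416 (by decide) (by decide +kernel)
theorem p23 : C.OkL 44416 46080 := C.okL_of 44416 13 0 46080 (by decide) (by decide +kernel)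
theorem p24 : C.OkL 46080 47616 := C.okL_of 46080 12 0 47616 (by decide) (by decide +kernel)
theorem p25 : C.OkL 47616 49152 := C.okL_of 47616 12 0 49152 (by decide) (by decide +kernel)
theorem p26 : C.OkL 49152 50944 := C.okL_of 49152 14 0 50944 (by decide) (by decide +kernel)
theorem p27 : C.OkL 50944 52736 := C.okL_of 50944 14 0 52736 (by decide) (by decide +kernel)
theorem p28 : C.OkL 52736 54528 := C.okL_of 52736 14 0 54528 (by decide) (by decide +kernel)
theorem p29 : C.OkL 54528 56320 := C.okL_of 54528 14 0 56320 (by decide) (by decide +kernel)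
theorem p30 : C.OkL 56320 58240 := C.okL_of 56320 15 0 58240 (by decide) (by decide +kernel)
theorem p31 : C.OkL 58240 60160 := C.okL_of 58240 15 0 60160 (by decide) (by decide +kernel)
theorem p32 : C.OkL 60160 62080 := C.okL_of 60160 15 0 62080 (by decide) (by decide +kernel)
theorem p33 : C.OkL 62080 63872 := C.okL_of 62080 14 0 63872 (by decide) (by decide +kernel)
theorem p34 : C.OkL 63872 65536 := C.okL_of 63872 13 0 65536 (by decide) (by decide +kernel)
theorem p35 : C.OkL 65536 67328 := C.okL_of 65536 14 0 67328 (by decide) (by decide +kernel)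
theorem p36 : C.OkL 67328 69248 := C.okL_of 67328 15 0 69248 (by decide) (by decide +kernel)
theorem p37 : C.OkL 69248 71040 := C.okL_of 69248 14 0 71040 (by decide) (by decide +kernel)
theorem p38 : C.OkL 71040 72960 := C.okL_of 71040 15 0 72960 (by decide) (by decide +kernel)
theorem p39 : C.OkL 72960 74752 := C.okL_of 72960 14 0 74752 (by decide) (by decide +kernel)
end CfH6.ONT1
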