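import Cfsg.Agent.OD.Pre
import Cfsg.Agent.H6.TCTop
import Cfsg.Agent.H6.ONT1.C
set_option autoImplicit false
set_option maxRecDepth 100000
set_option Elab.async false
set_option linter.all false
namespace CfH6.ONT1
open CfH6
theorem p40 : C.OkL 74752 76544 := C.okL_of 74752 14 0 76544 (by decide) (by decide +kernel)
theorem p41 : C.OkL 76544 78464 := C.okL_of 76544 15 0 78464 (by decide) (by decide +kernel)
theorem p42 : C.OkL 78464 80256 := C.okL_of 78464 14 0 80256 (by decide) (by decide +kernel)
theorem p43 : C.OkL 80256 82048 := C.okL_of 80256 14 0 82048 (by decide) (by decide +kernel)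
theorem p44 : C.OkL 82048 83968 := C.okL_of 82048 15 0 83968 (by decide) (by decide +kernel)
theorem p45 : C.OkL 83968 85760 := C.okL_of 83968 14 0 85760 (by decide) (by decide +kernel)
theorem p46 : C.OkL 85760 87552 := C.okL_of 85760 14 0 87552 (by decide) (by decide +kernel)
theorem p47 : C.OkL 87552 89344 := C.okL_of 87552 14 0 89344 (by decide) (by decide +kernel)
theorem p48 : C.OkL 89344 91136 := C.okL_of 89344 14 0 91136 (by decide) (by decide +kernel)
theorem p49 : C.OkL 91136 92928 := C.okL_of 91136 14 0 92928 (by decide) (by decide +kernel)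
theorem p50 : C.OkL 92928 94848 := C.okL_of 92928 15 0 94848 (by decide) (by decide +kernel)
theorem p51 : C.OkL 94848 96640 := C.okL_of 94848 14 0 96640 (by decide) (by decide +kernel)
theorem p52 : C.OkL 96640 98432 := C.okL_of 96640 14 0 98432 (by decide) (by decide +kernel)
theorem p53 : C.OkL 98432 100224 := C.okL_of 98432 14 0 100224 (by decide) (by decide +kernel)
theorem p54 : C.OkL 100224 101888 := C.okL_of 100224 13 0 101888 (by decide) (by decide +kernel)
theorem p55 : C.OkL 101888 103680 := C.okL_of 101888 14 0 103680 (by decide) (by decide +kernel)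
theorem p56 : C.OkL 103680 105472 := C.okL_of 103680 14 0 105472 (by decide) (by decide +kernel)
theorem p57 : C.OkL 105472 107264 := C.okL_of 105472 14 0 107264 (by decide) (by decide +kernel)
theorem p58 : C.OkL 107264 109056 := C.okL_of 107264 14 0 109056 (by decide) (by decide +kernel)
theorem p59 : C.OkL 109056 110848 := C.okL_of 109056 14 0 110848 (by decide) (by decide +kernel)
end CfH6.ONT1
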