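import Cfsg.Agent.OD.Pre
import Cfsg.Agent.H6.TCTop
import Cfsg.Agent.H6.ONT1.C
set_option autoImplicit false
set_option maxRecDepth 100000
set_option Elab.async false
set_option linter.all false
namespace CfH6.ONT1
open CfH6
theorem p60 : C.OkL 110848 112640 := C.okL_of 110848 14 0 112640 (by decide) (by decide +kernel)
theorem p61 : C.OkL 112640 114560 := C.okL_of 112640 15 0 114560 (by decide) (by decide +kernel)
theorem p62 : C.OkL 114560 116480 := C.okL_of 114560 15 0 116480 (by decide) (by decide +kernel)
theorem p63 : C.OkL 116480 118272 := C.okL_of 116480 14 0 118272 (by decide) (by decide +kernel)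
theorem p64 : C.OkL 118272 120064 := C.okL_of 118272 14 0 120064 (by decide) (by decide +kernel)
theorem p65 : C.OkL 120064 121856 := C.okL_of 120064 14 0 121856 (by decide) (by decide +kernel)
theorem p66 : C.OkL 121856 123016 := C.okL_of 121856 9 8 123016 (by decide) (by decide +kernel)
theorem p67 : C.OkR 123016 125576 := C.okR_of 123016 20 0 125576 (by decide) (by decide +kernel)
theorem p68 : C.OkR 125576 128008 := C.okR_of 125576 19 0 128008 (by decide) (by decide +kernel)
theorem p69 : C.OkR 128008 130312 := C.okR_of 128008 18 0 130312 (by decide) (by decide +kernel)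
theorem p70 : C.OkR 130312 132616 := C.okR_of 130312 18 0 132616 (by decide) (by decide +kernel)
theorem p71 : C.OkR 132616 134792 := C.okR_of 132616 17 0 134792 (by decide) (by decide +kernel)
theorem p72 : C.OkR 134792 137096 := C.okR_of 134792 18 0 137096 (by decide) (by decide +kernel)
theorem p73 : C.OkR 137096 139272 := C.okR_of 137096 17 0 139272 (by decide) (by decide +kernel)
theorem p74 : C.OkR 139272 141576 := C.okR_of 139272 18 0 141576 (by decide) (by decide +kernel)
theorem p75 : C.OkR 141576 143880 := C.okR_of 141576 18 0 143880 (by decide) (by decide +kernel)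
theorem p76 : C.OkR 143880 146440 := C.okR_of 143880 20 0 146440 (by decide) (by decide +kernel)
theorem p77 : C.OkR 146440 148744 := C.okR_of 146440 18 0 148744 (by decide) (by decide +kernel)
theorem p78 : C.OkR 148744 151048 := C.okR_of 148744 18 0 151048 (by decide) (by decide +kernel)
theorem p79 : C.OkR 151048 153224 := C.okR_of 151048 17 0 153224 (by decide) (by decide +kernel)
end CfH6.ONT1
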