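import Cfsg.Agent.OD.Pre
import Cfsg.Agent.H6.TCTop
import Cfsg.Agent.H6.ONT1.C
set_option autoImplicit false
set_option maxRecDepth 100000
set_option Elab.async false
set_option linter.all false
namespace CfH6.ONT1
open CfH6
theorem p80 : C.OkR 153224 155528 := C.okR_of 153224 18 0 155528 (by decide) (by decide +kernel)
theorem p81 : C.OkR 155528 157832 := C.okR_of 155528 18 0 157832 (by decide) (by decide +kernel)
theorem p82 : C.OkR 157832 160392 := C.okR_of 157832 20 0 160392 (by decide) (by decide +kernel)
theorem p83 : C.OkR 160392 162952 := C.okR_of 160392 20 0 162952 (by decide) (by decide +kernel)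
theorem p84 : C.OkR 162952 165384 := C.okR_of 162952 19 0 165384 (by decide) (by decide +kernel)
theorem p85 : C.OkR 165384 167688 := C.okR_of 165384 18 0 167688 (by decide) (by decide +kernel)
theorem p86 : C.OkR 167688 169992 := C.okR_of 167688 18 0 169992 (by decide) (by decide +kernel)
theorem p87 : C.OkR 169992 172424 := C.okR_of 169992 19 0 172424 (by decide) (by decide +kernel)
theorem p88 : C.OkR 172424 174984 := C.okR_of 172424 20 0 174984 (by decide) (by decide +kernel)
theorem p89 : C.OkR 174984 177672 := C.okR_of 174984 21 0 177672 (by decide) (by decide +kernel)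
theorem p90 : C.OkR 177672 180104 := C.okR_of 177672 19 0 180104 (by decide) (by decide +kernel)
theorem p91 : C.OkR 180104 182536 := C.okR_of 180104 19 0 182536 (by decide) (by decide +kernel)
theorem p92 : C.OkR 182536 184968 := C.okR_of 182536 19 0 184968 (by decide) (by decide +kernel)
theorem p93 : C.OkR 184968 187400 := C.okR_of 184968 19 0 187400 (by decide) (by decide +kernel)
theorem p94 : C.OkR 187400 189832 := C.okR_of 187400 19 0 189832 (by decide) (by decide +kernel)
theorem p95 : C.OkR 189832 192392 := C.okR_of 189832 20 0 192392 (by decide) (by decide +kernel)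
theorem p96 : C.OkR 192392 194952 := C.okR_of 192392 20 0 194952 (by decide) (by decide +kernel)
theorem p97 : C.OkR 194952 196116 := C.okR_of 194952 9 12 196116 (by decide) (by decide +kernel)
end CfH6.ONT1
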